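import Cfsg.Agent.BpTwo.Two
import Cfsg.Agent.FixBN.ReeSplit
import Cfsg.Agent.FixBN.OutSplit
import Cfsg.Agent.LieRecognition.ReeFinal
import Cfsg.Agent.S1163

/-!
# The row `²G₂(q)` of S1332, `p ≠ 3`

A Sylow `3`-subgroup `P` of `C_K(x)`: if `P ≠ 1` then `N_K(P)` normalises the Sylow `3`-subgroup of `K` above `P`, so it is
solvable; if `P = 1` then `C_K(x)` has order prime to `3` and not divisible by `16`, so it is solvable.
-/

set_option autoImplicit false

namespace Cfsg.Agent.BpTwo

open Subgroup Cfsg Cfsg.Agent.BpTab Cfsg.Agent.Schreier.Basic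
open Cfsg.Agent.LieRecognition.ReeAbs Cfsg.Agent.LieRecognition.ReeSylowThree Cfsg.Agent.FixBN.ReeSplit
open scoped Pointwise

universe u

/-- The input: nonabelian simple groups of order prime to `3` are Suzuki groups. -/
def ThreeP : Prop := ∀ (X : Type u) [Group X] [Finite X] [IsSimpleGroup X],
  (∃ a b : X, a * b ≠ b * a) → ¬ 3 ∣ Nat.card X → Lie.IsoSuzuki X

theorem sixty_four_dvd {X : Type*} [Group X] [Finite X] (h : Lie.IsoSuzuki X) : 64 ∣ Nat.card X := by
  obtain ⟨F, _, _, m, hm, hF, ⟨e⟩⟩ := h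
  rw [Nat.card_congr e.toEquiv, (Cfsg.Agent.S1163.result hm hF).1, mul_assoc]
  refine Dvd.dvd.mul_right ?_ _
  rw [← pow_mul]
  exact pow_dvd_pow 2 (show 6 ≤ (2 * m + 1) * 2 by omega)

/-- A group of order prime to `3` and not divisible by `64` is solvable. -/
theorem isSolvable_of_three (h3p : ThreeP.{u}) (n : ℕ) : ∀ (H : Type u) [Group H] [Finite H], Nat.card H = n →
    ¬ 3 ∣ n → ¬ 64 ∣ n → Group.IsSolvable H := by
  induction n using Nat.strong_induction_on with
  | _ n ih =>
    intro H _ _ hn h3 h64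
    by_cases hs : IsSimpleGroup H
    · by_cases hc : ∃ a b : H, a * b ≠ b * a
      · exact absurd (sixty_four_dvd (h3p H hc (by rw [hn]; exact h3))) (by rw [hn]; exact h64)
      · push Not at hc
        exact Group.isSolvable_of_comm hc
    · by_cases ht : Nontrivial H
      · have h1 : ∃ N : Subgroup H, N.Normal ∧ N ≠ ⊥ ∧ N ≠ ⊤ := by
          by_contra hcon
          push Not at hcon
          apply hs
          exact ⟨fun N hN => or_iff_not_imp_left.2 fun hb => hcon N hN hb⟩
        obtain ⟨N, hN, hb, htop⟩ := h1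
        have hcard : Nat.card (H ⧸ N) * Nat.card N = n := by rw [← Subgroup.card_eq_card_quotient_mul_card_subgroup, hn]
        have hn0 : 0 < n := hn ▸ Nat.card_pos
        have h2 : Nat.card N < n := by
          rw [← hn]
          exact lt_of_le_of_ne (Nat.le_of_dvd Nat.card_pos (Subgroup.card_subgroup_dvd_card N))
            (fun h => htop (Subgroup.eq_top_of_card_eq N h))
        have h4 : Nat.card (H ⧸ N) < n := by
          have h5 : 1 < Nat.card N := by
            have : Nontrivial N := (Subgroup.nontrivial_iff_ne_bot N).2 hb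
            exact Finite.one_lt_card
          rw [← hcard]
          exact lt_mul_of_one_lt_right Nat.card_pos h5
        rw [Group.isSolvable_iff_subgroup_quotient N]
        exact ⟨ih _ h2 N rfl (fun h => h3 (h.trans ⟨_, by rw [← hcard, mul_comm]⟩))
            (fun h => h64 (h.trans ⟨_, by rw [← hcard, mul_comm]⟩)),
          ih _ h4 (H ⧸ N) rfl (fun h => h3 (h.trans ⟨_, hcard.symm⟩)) (fun h => h64 (h.trans ⟨_, hcard.symm⟩))⟩
      · rw [not_nontrivial_iff_subsingleton] at ht
        exact Group.isSolvable_of_comm fun a b => Subsingleton.elim _ _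

/-- The order of `²G₂(q)` is not divisible by `16`. -/
theorem not_sixteen (m : ℕ) :
    ¬ 16 ∣ (3 ^ (2 * m + 1)) ^ 3 * (3 ^ (2 * m + 1) - 1) * ((3 ^ (2 * m + 1)) ^ 3 + 1) := by
  have h9 : ∀ k : ℕ, 9 ^ k % 8 = 1 := by
    intro k
    induction k with
    | zero => rfl
    | succ k ih => rw [pow_succ, Nat.mul_mod, ih]
  have hq : 3 ^ (2 * m + 1) % 8 = 3 := by
    rw [pow_succ, pow_mul, Nat.mul_mod, show (3 : ℕ) ^ 2 = 9 by norm_num, h9]
  generalize 3 ^ (2 * m + 1) = q at hq
  obtain ⟨k, rfl⟩ : ∃ k, q = 8 * k + 3 := ⟨q / 8, by omega⟩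
  intro h
  have e1 : (8 * k + 3) ^ 3 * (8 * k + 3 - 1) * ((8 * k + 3) ^ 3 + 1) =
      8 * ((8 * k + 3) ^ 3 * (4 * k + 1) * (128 * k ^ 3 + 144 * k ^ 2 + 54 * k + 7)) := by
    have e2 : 8 * k + 3 - 1 = 2 * (4 * k + 1) := by omega
    rw [e2]
    ring
  rw [e1, show 16 = 8 * 2 by norm_num] at h
  have h2 := Nat.dvd_of_mul_dvd_mul_left (by norm_num : 0 < 8) h
  rw [Nat.prime_two.dvd_mul, Nat.prime_two.dvd_mul] at h2
  rcases h2 with (h2 | h2) | h2
  · have h3 := Nat.prime_two.dvd_of_dvd_pow h2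
    omega
  · omega
  · omega

section Model

variable {K : Type*} [Field K] [Fintype K] {G : Type u} [Group G] {m : ℕ} {U : K → K → K → G} {h : Kˣ → G} {n : G}

/-- The normaliser of a nontrivial `3`-subgroup of `²G₂(q)` is solvable. -/
theorem isSolvable_normalizer (hK : Fintype.card K = 3 ^ (2 * m + 1)) (D : Data m U h n) {P : Subgroup G}
    (hP : IsPGroup 3 P) (hP1 : P ≠ ⊥) : Group.IsSolvable ↥(normalizer (P : Set G)) := by
  have : Fact (Nat.Prime 3) := ⟨Nat.prime_three⟩
  have hfin : Finite G := finite D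
  have hsp := split hK D
  have hB : Group.IsSolvable ↥(bnPair D).B := by
    refine FixBN.Split.isSolvable_B_of_comm hsp ?_
    rintro a ⟨ha1, ha2⟩ b ⟨hb1, hb2⟩
    obtain ⟨x, rfl⟩ := mem_inf D ha1 ha2
    obtain ⟨y, rfl⟩ := mem_inf D hb1 hb2
    rw [← D.h_mul, ← D.h_mul, mul_comm]
  -- `uSub` is a Sylow subgroup
  have hcardU : Nat.card (uSub D) = 3 ^ (3 * (2 * m + 1)) := by
    rw [card_uSub, hK, ← pow_mul, mul_comm]
  obtain ⟨S, hS⟩ := hP.exists_le_sylow
  have hNS : normalizer (P : Set G) ≤ normalizer ((S : Subgroup G) : Set G) := by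
    intro k hk
    by_contra hkS
    have h1 : k • S ≠ S := fun h => hkS (Sylow.smul_eq_iff_mem_normalizer.1 h)
    apply hP1
    rw [eq_bot_iff, ← sylow_three_inf hK D (k • S) S h1]
    refine le_inf ?_ hS
    intro y hy
    change y ∈ MulAut.conj k • (S : Subgroup G)
    rw [Subgroup.mem_smul_pointwise_iff_exists]
    refine ⟨k⁻¹ * y * k, hS ?_, ?_⟩
    · have h2 := (Subgroup.mem_normalizer_iff.1 (inv_mem hk) y).1 hy
      rwa [inv_inv] at h2
    · rw [MulAut.smul_def, MulAut.conj_apply]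
      group
  -- `S` is conjugate to `uSub`
  have hidx : ¬ 3 ∣ (uSub D).index := by
    have h1 := (uSub D).card_mul_index
    rw [hcardU, LieRecognition.ReeFinal.card_of_data D hK] at h1
    have h2 : 3 ^ (3 * (2 * m + 1)) = (3 ^ (2 * m + 1)) ^ 3 := by rw [← pow_mul, mul_comm]
    rw [h2, mul_assoc] at h1
    have h3 := Nat.eq_of_mul_eq_mul_left (by positivity) h1
    rw [h3]
    set q := 3 ^ (2 * m + 1) with hq
    have hq3 : 3 ∣ q := dvd_pow_self 3 (by omega)
    have hq0 : 0 < q := by positivity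
    rw [Nat.prime_three.dvd_mul]
    have h3 : 3 ∣ q ^ 3 := dvd_pow hq3 (by norm_num)
    rintro (h | h) <;> omega
  let S' : Sylow 3 G := hsp.isP.toSylow hidx
  have hS' : (S' : Subgroup G) = uSub D := rfl
  obtain ⟨g, hg⟩ := MulAction.exists_smul_eq G S S'
  have hN : Group.IsSolvable ↥(normalizer ((S' : Subgroup G) : Set G)) := by
    rw [hS', hsp.normalizer_eq]
    exact hB
  have key : ∀ s ∈ normalizer (P : Set G), g * s * g⁻¹ ∈ normalizer ((S' : Subgroup G) : Set G) := by
    intro s hs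
    have h1 := Sylow.smul_eq_iff_mem_normalizer.2 (hNS hs)
    refine Sylow.smul_eq_iff_mem_normalizer.1 ?_
    rw [← hg, smul_smul, inv_mul_cancel_right, mul_smul, h1]
  let f : ↥(normalizer (P : Set G)) →* ↥(normalizer ((S' : Subgroup G) : Set G)) :=
    { toFun := fun s => ⟨g * s * g⁻¹, key s s.2⟩
      map_one' := Subtype.ext (by simp)
      map_mul' := fun a b => Subtype.ext (by
        change g * ((a : G) * (b : G)) * g⁻¹ = g * a * g⁻¹ * (g * b * g⁻¹)
        group) }
  refine Group.isSolvable_of_isSolvable_injective (f := f) ?_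
  intro a b hab
  have h1 : g * (a : G) * g⁻¹ = g * b * g⁻¹ := congrArg Subtype.val hab
  exact Subtype.ext (mul_left_cancel (mul_right_cancel h1))

/-- `Good r` for the fixed points of an automorphism of prime order `r ≠ 2, 3` of `²G₂(q)`. -/
theorem bpS_of_data (hI : Inp.{u}) (h3p : ThreeP.{u}) (hK : Fintype.card K = 3 ^ (2 * m + 1)) (D : Data m U h n)
    [Finite G] {r : ℕ} [hr : Fact r.Prime] (hr3 : r ≠ 3) : BpS r G := by
  have h3 : Fact (Nat.Prime 3) := ⟨Nat.prime_three⟩
  intro x hx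
  by_cases hd : 3 ∣ Nat.card ↥(fixedSubgroup x)
  · obtain ⟨Pa, d, h1, h2, h4⟩ := exists_gates hr3 (split hK D) x (by rw [← hx]; exact pow_orderOf_eq_one x)
    obtain ⟨a⟩ : Nonempty (Sylow 3 ↥(fixedSubgroup x)) := inferInstance
    refine BpGate.good_of_isSolvable h1 h2 h4 (fun J hJ => sch_component hI.sch hI.kn J hJ) a ?_
    have ha1 : (a : Subgroup ↥(fixedSubgroup x)).map (fixedSubgroup x).subtype ≠ ⊥ := by
      intro h
      rw [Subgroup.map_eq_bot_iff_of_injective _ (Subgroup.subtype_injective _)] at h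
      exact a.ne_bot_of_dvd_card hd h
    have hs := isSolvable_normalizer hK D (P := (a : Subgroup ↥(fixedSubgroup x)).map (fixedSubgroup x).subtype)
      (a.isPGroup'.map _) ha1
    have key : ∀ s ∈ normalizer ((a : Subgroup ↥(fixedSubgroup x)) : Set ↥(fixedSubgroup x)),
        (s : G) ∈ normalizer (((a : Subgroup ↥(fixedSubgroup x)).map (fixedSubgroup x).subtype : Subgroup G) : Set G) := by
      intro s hs
      exact Subgroup.le_normalizer_map _ ⟨s, hs, rfl⟩
    let f : ↥(normalizer ((a : Subgroup ↥(fixedSubgroup x)) : Set ↥(fixedSubgroup x))) →*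
        ↥(normalizer (((a : Subgroup ↥(fixedSubgroup x)).map (fixedSubgroup x).subtype : Subgroup G) : Set G)) :=
      { toFun := fun s => ⟨((s : ↥(fixedSubgroup x)) : G), key s s.2⟩
        map_one' := rfl
        map_mul' := fun _ _ => rfl }
    refine Group.isSolvable_of_isSolvable_injective (f := f) ?_
    intro b c hbc
    have h5 := congrArg Subtype.val hbc
    exact Subtype.ext (Subtype.ext h5)
  · refine good_of_solvable (isSolvable_of_three h3p _ _ rfl hd fun h => ?_)
    have h1 : 16 ∣ Nat.card G := ((by norm_num : 16 ∣ 64).trans h).trans (Subgroup.card_subgroup_dvd_card _)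
    rw [LieRecognition.ReeFinal.card_of_data D hK] at h1
    exact not_sixteen m h1

end Model

/-- **The row of the Ree groups `²G₂(q)`, `r ≠ 3`.** -/
theorem row_ree (hI : Inp.{0}) (h3p : ThreeP.{0}) {r : ℕ} [hr : Fact r.Prime] (hr3 : r ≠ 3) :
    Row.{u} r fun X _ => Lie.IsoRee X := by
  intro X _ _ h
  obtain ⟨K, _, _, m, hm, hK, ⟨e⟩⟩ := h
  obtain ⟨U, h, n, D⟩ := ChevalleyStructure.Ree.Data.exists_data hK
  have hfin := finite D
  exact (bpS_of_data hI h3p hK D hr3).congr e.symm

end Cfsg.Agent.BpTwo
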